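import Cfsg.Agent.E27.Rep

/-! The cubic form of the 27-dimensional module of type `E₆`, its polar forms, and the root elements. -/

set_option autoImplicit false

namespace Cfsg.Agent.E27

open Cfsg.Lie Cfsg.Agent.Chev Matrix

/-- A signed monomial of degree three. -/
abbrev Mono := ℕ × ℕ × ℕ × ℤ

/-- The 45 monomials of the cubic form. -/
def L45 : List Mono := [(0, 4, 8, 1), (0, 5, 7, -1), (1, 3, 8, -1), (1, 5, 6, 1), (2, 3, 7, 1), (2, 4, 6, -1), (9, 13, 17, 1),
  (9, 14, 16, -1), (10, 12, 17, -1), (10, 14, 15, 1), (11, 12, 16, 1), (11, 13, 15, -1), (18, 22, 26, 1),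
  (18, 23, 25, -1), (19, 21, 26, -1), (19, 23, 24, 1), (20, 21, 25, 1), (20, 22, 24, -1), (0, 9, 18, -1),
  (0, 10, 21, -1), (0, 11, 24, -1), (1, 12, 18, -1), (1, 13, 21, -1), (1, 14, 24, -1), (2, 15, 18, -1),
  (2, 16, 21, -1), (2, 17, 24, -1), (3, 9, 19, -1), (3, 10, 22, -1), (3, 11, 25, -1), (4, 12, 19, -1),
  (4, 13, 22, -1), (4, 14, 25, -1), (5, 15, 19, -1), (5, 16, 22, -1), (5, 17, 25, -1), (6, 9, 20, -1),
  (6, 10, 23, -1), (6, 11, 26, -1), (7, 12, 20, -1), (7, 13, 23, -1), (7, 14, 26, -1), (8, 15, 20, -1),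
  (8, 16, 23, -1), (8, 17, 26, -1)]

/-- All rotations of the monomials of a list. -/
def r3 (L : List Mono) : List Mono := L.flatMap fun m => [m, (m.2.1, m.2.2.1, m.1, m.2.2.2), (m.2.2.1, m.1, m.2.1, m.2.2.2)]

/-- Both orders of the first two variables. -/
def r2 (L : List Mono) : List Mono := L.flatMap fun m => [m, (m.2.1, m.1, m.2.2)]

/-- Two of the 27 lines meet. -/
def mt (a c : ℕ) : Prop := Nat.testBit 0x1b927005b241c0da480761a4b8145490e30c9203b6093c0b412471b02481f801b920e05b24038da49c061a4871454901f0c92e03609238b41240fb024c93801b920e05b24038d925c061a4871454901f0c49e03609238b41240fb0 (Nat.add (Nat.mul 27 a) c) = true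

instance instDecidableMt (a c : ℕ) : Decidable (mt a c) := by unfold mt; infer_instance

variable {F : Type*} [CommRing F]

/-- The value of a trilinear monomial. -/
def tm (u v w : I27 → F) (m : Mono) : F := m.2.2.2 * u (xi m.1) * v (xi m.2.1) * w (xi m.2.2.1)

/-- The value of a trilinear form given by its monomials. -/
def ev3 (u v w : I27 → F) (L : List Mono) : F := (L.map (tm u v w)).sum

theorem ev3_cons (u v w : I27 → F) (m : Mono) (L : List Mono) : ev3 u v w (m :: L) = tm u v w m + ev3 u v w L := rfl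

theorem cubicT_eq (v : I27 → F) : cubicT v = ev3 v v v L45 := by
  have key (w : ℕ → F) : cubicT (fun a => w (ix a)) = (L45.map fun m => m.2.2.2 * w m.1 * w m.2.1 * w m.2.2.1).sum := by
    simp [cubicT, mat3, det_fin_three, trace, Fin.sum_univ_three, mul_apply, ix, L45]
    ring
  have := key fun n => v (xi n)
  simp only [xi_ix] at this
  exact this

theorem ev3_add (v w : I27 → F) (s : F) (L : List Mono) : ev3 (v + s • w) (v + s • w) (v + s • w) L =
    ev3 v v v L + s * ev3 v v w (r3 L) + s ^ 2 * ev3 w w v (r3 L) + s ^ 3 * ev3 w w w L := by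
  induction L with
  | nil => simp [ev3, r3]
  | cons m L ih =>
    simp only [r3, List.flatMap_cons, List.cons_append, List.nil_append, ev3_cons] at ih ⊢
    simp only [ih, tm, Pi.add_apply, Pi.smul_apply, smul_eq_mul]
    ring

theorem ev3_pol (u v w : I27 → F) (L : List Mono) :
    ev3 u v w (r2 L) = ev3 (u + v) (u + v) w L - ev3 u u w L - ev3 v v w L := by
  induction L with
  | nil => simp [ev3, r2]
  | cons m L ih =>
    simp only [r2, List.flatMap_cons, List.cons_append, List.nil_append, ev3_cons] at ih ⊢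
    simp only [ih, tm, Pi.add_apply]
    ring

theorem ev3_filter {u v w : I27 → F} {L : List Mono} (p : Mono → Bool) (h : ∀ m ∈ L, p m = false → tm u v w m = 0) :
    ev3 u v w L = ev3 u v w (L.filter p) := by
  induction L with
  | nil => rfl
  | cons m L ih =>
    rw [ev3_cons, ih fun m' hm => h m' (List.mem_cons_of_mem _ hm), List.filter_cons]
    cases e : p m
    · simp [h m (by simp) e]
    · rfl

theorem ev3_eq_zero {u v w : I27 → F} {L : List Mono} (h : ∀ m ∈ L, tm u v w m = 0) : ev3 u v w L = 0 :=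
  List.sum_eq_zero (List.forall_mem_map.2 h)

/-- The variables of a monomial. -/
def ky (m : Mono) : Multiset ℕ := {m.1, m.2.1, m.2.2.1}

theorem ev3_canc (v : I27 → F) {L : List Mono} (h1 : ∀ m ∈ L, m.2.2.2 = 0 ∨ m.2.2.2 = 1 ∨ m.2.2.2 = -1)
    (h : ((L.filter fun m => m.2.2.2 = 1).map ky).Perm ((L.filter fun m => m.2.2.2 = -1).map ky)) :
    ev3 v v v L = 0 := by
  have : ev3 v v v L = (((L.filter fun m => m.2.2.2 = 1).map ky).map fun s => (s.map fun n => v (xi n)).prod).sum -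
      (((L.filter fun m => m.2.2.2 = -1).map ky).map fun s => (s.map fun n => v (xi n)).prod).sum := by
    clear h
    induction L with
    | nil => simp [ev3]
    | cons m L ih =>
      rw [ev3_cons, ih fun m' hm => h1 m' (List.mem_cons_of_mem _ hm)]
      rcases h1 m (by simp) with e | e | e <;> simp [tm, e, ky] <;> ring
  rw [this, (h.map _).sum_eq, sub_self]

/-- The coordinate from which a root vector feeds the coordinate `x`. -/
def sr (r x : ℕ) : ℕ := tN (chevE6.neg r) x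

/-- The coefficient with which it does so. -/
def co (r x : ℕ) : ℤ := dl (tN r (sr r x)) x (sN r (sr r x))

theorem eM_mulVec (r : Rt chevE6) (v : I27 → F) {x : ℕ} (hx : x < 27) :
    (cm F (eM r) *ᵥ v) (xi x) = co r x * v (xi (sr r x)) := by
  have hs : sr r x < 27 := tN_lt _ (ng r).2 _ hx
  rw [mulVec, dotProduct, Finset.sum_eq_single (xi (sr r x)) (fun b _ hb => ?_) (by simp)]
  · simp [cm, eM, co, dl_eq, ← ix_inj, ix_tg, sg, ix_xi, hx, hs]
  · rcases (by decide +kernel : ∀ r < 72, ∀ b < 27, sN r b = 0 ∨ sr r (tN r b) = b) r r.2 _ (ix_lt b) with e | e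
    · simp [cm, eM, sg, e]
    · have : tg r b ≠ xi x := fun e' => hb (by rw [← ix_xi x hx, ← e', ix_tg, e, xi_ix])
      simp [cm, eM, this]

theorem lt6 : ∀ m ∈ r2 (r3 L45), m.1 < 27 ∧ m.2.1 < 27 ∧ m.2.2.1 < 27 ∧ mt m.1 m.2.1 ∧ m.2.2.2 * m.2.2.2 = 1 := by
  decide +kernel

theorem mem_r2 {L : List Mono} {m : Mono} (h : m ∈ L) : m ∈ r2 L := List.mem_flatMap.2 ⟨m, h, by simp⟩
theorem mem_r3 {L : List Mono} {m : Mono} (h : m ∈ L) : m ∈ r3 L := List.mem_flatMap.2 ⟨m, h, by simp⟩

theorem inv_chk : ∀ r < 72, (∀ m ∈ r3 L45, co r m.1 * co r m.2.1 = 0) ∧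
    ∀ L ∈ [(r3 L45).map fun m => (m.1, m.2.1, sr r m.2.2.1, m.2.2.2 * co r m.2.2.1)],
      (∀ m ∈ L, m.2.2.2 = 0 ∨ m.2.2.2 = 1 ∨ m.2.2.2 = -1) ∧
      ((L.filter fun m => m.2.2.2 = 1).map ky).Perm ((L.filter fun m => m.2.2.2 = -1).map ky) := by
  decide +kernel

theorem rep_y (r : Rt chevE6) (t : F) (v : I27 → F) : rep.y r t *ᵥ v = v + t • cm F (eM r) *ᵥ v := by
  simp [PreRep.y, rep, Finset.sum_range_succ, add_mulVec, smul_mulVec]

theorem cubicT_y (r : Rt chevE6) (t : F) (v : I27 → F) : cubicT (rep.y r t *ᵥ v) = cubicT v := by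
  obtain ⟨h1, h2⟩ := inv_chk r r.2
  have h3 (w : I27 → F) : ∀ m ∈ r3 L45, tm (cm F (eM r) *ᵥ v) (cm F (eM r) *ᵥ v) w m = 0 := fun m hm => by
    have := congrArg (Int.cast (R := F)) (h1 m hm)
    push_cast at this
    rw [tm, eM_mulVec r v (lt6 m (mem_r2 hm)).1, eM_mulVec r v (lt6 m (mem_r2 hm)).2.1]
    linear_combination m.2.2.2 * v (xi (sr r m.1)) * v (xi (sr r m.2.1)) * w (xi m.2.2.1) * this
  have h4 : ev3 v v (cm F (eM r) *ᵥ v) (r3 L45) = 0 := by
    rw [← ev3_canc v (h2 _ (List.mem_singleton_self _)).1 (h2 _ (List.mem_singleton_self _)).2, ev3, ev3, List.map_map]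
    refine congrArg _ (List.map_congr_left fun m hm => ?_)
    simp only [tm, eM_mulVec r v (lt6 m (mem_r2 hm)).2.2.1, Function.comp, Int.cast_mul]
    ring
  rw [rep_y, cubicT_eq, cubicT_eq, ev3_add, h4, ev3_eq_zero (h3 _), ev3_eq_zero fun m hm => h3 _ m (mem_r3 hm)]
  ring

end Cfsg.Agent.E27
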