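import Cfsg.Agent.E27.Cubic
import Cfsg.Agent.Chev.AllL

/-! The isometry group of the cubic form in 27 variables is generated by the root elements of type `E₆`. -/

set_option autoImplicit false
set_option synthInstance.maxSize 2000

namespace Cfsg.Agent.E27

open Cfsg.Lie Cfsg.Agent.Chev Matrix

variable {F : Type*} [Field F]

/-- The action of the isometry group. -/
def act (g : E6univ F) (v : I27 → F) : I27 → F := (g.1 : Matrix I27 I27 F) *ᵥ v

theorem act_mul (g h : E6univ F) (v : I27 → F) : act (g * h) v = act g (act h v) := (mulVec_mulVec _ _ _).symm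

theorem act_inv (g : E6univ F) (v : I27 → F) : act g (act g⁻¹ v) = v := by
  rw [← act_mul, mul_inv_cancel]; exact one_mulVec v

theorem act_B (hF : ∃ t : F, t ≠ 0 ∧ t ≠ 1) (g : E6univ F) (v w : I27 → F) :
    ev3 (act g v) (act g v) (act g w) (r3 L45) = ev3 v v w (r3 L45) := by
  obtain ⟨t, h0, h1⟩ := hF
  have h (u : I27 → F) : ev3 (act g u) (act g u) (act g u) L45 = ev3 u u u L45 := by
    rw [← cubicT_eq, ← cubicT_eq]; exact g.2 u
  have key (s : F) := h (v + s • w)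
  simp only [act, mulVec_add, mulVec_smul, ev3_add] at key h ⊢
  refine mul_left_cancel₀ (mul_ne_zero h0 (sub_ne_zero.2 h1)) ?_
  linear_combination t ^ 2 * key 1 - key t - (t ^ 2 - 1) * h v - (t ^ 2 - t ^ 3) * h w

theorem act_f (hF : ∃ t : F, t ≠ 0 ∧ t ≠ 1) (g : E6univ F) (u v w : I27 → F) :
    ev3 (act g u) (act g v) (act g w) (r2 (r3 L45)) = ev3 u v w (r2 (r3 L45)) := by
  rw [ev3_pol, ev3_pol, act_B hF, act_B hF, ← act_B hF g (u + v)]
  simp only [act, mulVec_add]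

/-- The basis vectors. -/
def bv (a : ℕ) : I27 → F := Pi.single (xi a) 1

theorem bv_xi {a b : ℕ} (ha : a < 27) (hb : b < 27) : bv a (xi b) = if b = a then (1 : F) else 0 := by
  simp [bv, Pi.single_apply, ← ix_inj, ix_xi, ha, hb]

theorem mt_chk : ∀ a < 27, ¬mt a a ∧ ∀ c < 27, mt a c → mt c a ∧ ∃ m ∈ r2 (r3 L45), m.1 = a ∧ m.2.1 = c := by
  decide +kernel

theorem f_bas {m : Mono} (hm : m ∈ r2 (r3 L45)) (v : I27 → F) :
    ev3 (bv m.1) v (bv m.2.2.1) (r2 (r3 L45)) = m.2.2.2 * v (xi m.2.1) := by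
  obtain ⟨h1, -, h3, -⟩ := lt6 m hm
  rw [ev3_filter (fun n => n.1 = m.1 ∧ n.2.2.1 = m.2.2.1) fun n hn e => ?_, (by decide +kernel : ∀ m ∈ r2 (r3 L45),
    (r2 (r3 L45)).filter (fun n => n.1 = m.1 ∧ n.2.2.1 = m.2.2.1) = [m]) m hm]
  · simp [ev3, tm, bv_xi, h1, h3]
  · obtain ⟨h4, -, h6, -⟩ := lt6 n hn
    rcases not_and_or.1 (of_decide_eq_false e) with e | e <;> simp [tm, bv_xi, *]

theorem f_zero {a : ℕ} (ha : a < 27) {v : I27 → F} (hv : ∀ c < 27, mt a c → v (xi c) = 0) (w : I27 → F) :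
    ev3 (bv a) v w (r2 (r3 L45)) = 0 := ev3_eq_zero fun m hm => by
  obtain ⟨h1, h2, -, h4, -⟩ := lt6 m hm
  by_cases e : m.1 = a
  · simp [tm, hv _ h2 (e ▸ h4)]
  · simp [tm, bv_xi, *]

theorem ne_zero6 {m : Mono} (hm : m ∈ r2 (r3 L45)) : (m.2.2.2 : F) ≠ 0 :=
  left_ne_zero_of_mul_eq_one (b := (m.2.2.2 : F)) (by rw [← Int.cast_mul, (lt6 m hm).2.2.2.2, Int.cast_one])

theorem sing {v : I27 → F} {b : ℕ} (hb : b < 27) (hv : ∀ w, ev3 v v w (r3 L45) = 0) (h1 : v (xi b) = 1)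
    (h0 : ∀ c < 27, c ≠ b → ¬mt c b → v (xi c) = 0) : v = bv b := funext fun x => by
  rw [← xi_ix x, bv_xi hb (ix_lt x)]
  split_ifs with e
  · rwa [e]
  refine by_contra fun h => ?_
  obtain ⟨m, hm, rfl, e2⟩ := ((mt_chk b hb).2 _ (ix_lt x)
    ((mt_chk _ (ix_lt x)).2 b hb (by_contra fun h' => h (h0 _ (ix_lt x) e h'))).1).2
  have key := hv (bv m.2.2.1)
  rw [ev3_filter (fun n => n.2.2.1 = m.2.2.1 ∧ (n.1 = m.1 ∨ mt n.1 m.1) ∧ (n.2.1 = m.1 ∨ mt n.2.1 m.1))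
    fun n hn e => ?_] at key
  · rcases (by decide +kernel : ∀ m ∈ r2 (r3 L45), ∀ L ∈ [(r3 L45).filter fun n => n.2.2.1 = m.2.2.1 ∧
      (n.1 = m.1 ∨ mt n.1 m.1) ∧ (n.2.1 = m.1 ∨ mt n.2.1 m.1)], L = [m] ∨ L = [(m.2.1, m.1, m.2.2)]) m hm _
        (List.mem_singleton_self _) with e' | e' <;> rw [e'] at key <;>
      simp [ev3, tm, bv_xi, (lt6 m hm).2.2.1, h1, e2, h, ne_zero6 hm] at key
  · obtain ⟨h4, h5, h6, -⟩ := lt6 n (mem_r2 hn)
    rcases not_and_or.1 (of_decide_eq_false e) with e | e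
    · simp [tm, bv_xi, (lt6 m hm).2.2.1, *]
    · rcases not_and_or.1 e with e | e
      · simp [tm, h0 _ h4 (not_or.1 e).1 (not_or.1 e).2]
      · simp [tm, h0 _ h5 (not_or.1 e).1 (not_or.1 e).2]

variable (F) in
/-- The root elements. -/
noncomputable def sys : Sys chevE6 F (E6univ F) :=
  ChAut.pullS (PreRep.sys isRep F) (E6univ F).subtype (Subgroup.subtype_injective _)
    (fun r t => ⟨(PreRep.sys isRep F).x r t, cubicT_y r t⟩) fun _ _ => rfl

theorem act_x (r : Rt chevE6) (t : F) (v : I27 → F) {x : ℕ} (hx : x < 27) :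
    act ((sys F).x r t) v (xi x) = v (xi x) + t * (co r x * v (xi (sr r x))) := by
  rw [← eM_mulVec r v hx]; exact congrFun (rep_y r t v) _

/-- The elements fixing the basis vectors of a list. -/
def Fx (A : List ℕ) (g : E6univ F) : Prop := ∀ a ∈ A, a < 27 → act g (bv a) = bv a

/-- The root element moving `c` along `d` fixes the basis vectors of `A`. -/
def Ok (A : List ℕ) (c d : ℕ) : Prop := c ≠ d ∧ ¬mt c d ∧ ∀ a ∈ A, a ≠ c ∧ (mt a d → mt a c)

instance instDecidableOk (A : List ℕ) (c d : ℕ) : Decidable (Ok A c d) := by unfold Ok; infer_instance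

theorem mv {A : List ℕ} {c d : ℕ} (hc : c < 27) (hd : d < 27) (h : Ok A c d) (t : F) {g : E6univ F} (hg : Fx A g)
    (v : I27 → F) (H : ∀ g', Fx A g' → act g' v (xi d) = act g v (xi d) + t * act g v (xi c) →
      (∀ x < 27, x ≠ d → ¬mt x c → act g' v (xi x) = act g v (xi x)) → g' ∈ (sys F).U Set.univ) :
    g ∈ (sys F).U Set.univ := by
  obtain ⟨r, hr, e1, e2, e3⟩ := (by decide +kernel : ∀ c < 27, ∀ d < 27, c ≠ d → ¬mt c d → ∃ r < 72, sr r d = c ∧
    co r d * co r d = 1 ∧ ∀ x < 27, co r x = 0 ∨ x = d ∨ mt x c ∧ mt (sr r x) d ∧ ¬mt (sr r x) c) c hc d hd h.1 h.2.1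
  have e4 : (co r d : F) * co r d = 1 := by rw [← Int.cast_mul, e2, Int.cast_one]
  refine (Subgroup.mul_mem_cancel_left _ ((sys F).x_mem_U (Set.mem_univ ⟨r, hr⟩) (t * co r d))).1
    (H _ (fun a ha ha' => funext fun x => ?_) ?_ fun x hx h1 h2 => ?_)
  · rw [act_mul, hg a ha ha', ← xi_ix x, act_x _ _ _ (ix_lt x), bv_xi (b := sr _ _) ha' (tN_lt _ (ng ⟨r, hr⟩).2 _ (ix_lt x))]
    rcases e3 _ (ix_lt x) with e | e | e
    · simp [e]
    · simp [e, e1, (h.2.2 a ha).1.symm]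
    · rw [if_neg (by rintro rfl; exact e.2.2 ((h.2.2 _ ha).2 e.2.1))]; simp
  · rw [act_mul, act_x _ _ _ hd, e1]; linear_combination t * act g v (xi c) * e4
  · rw [act_mul, act_x _ _ _ hx, ((e3 x hx).resolve_right fun e => e.elim h1 fun e => h2 e.1 :)]; simp

variable (hF : ∃ t : F, t ≠ 0 ∧ t ≠ 1) {A : List ℕ} {b : ℕ} (hA : ∀ a ∈ A, a < 27) (hb : b < 27)
include hF hA hb

theorem supp {g : E6univ F} (hg : Fx A g) {a c : ℕ} (ha : a ∈ A) (hc : c < 27) (h1 : ¬mt a b) (h2 : mt a c) :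
    act g (bv b) (xi c) = 0 := by
  obtain ⟨m, hm, rfl, rfl⟩ := ((mt_chk a (hA a ha)).2 c hc h2).2
  refine (mul_eq_zero.1 ?_).resolve_left (ne_zero6 hm)
  rw [← f_bas hm, ← hg _ ha (hA _ ha), ← act_inv g (bv m.2.2.1), act_f hF]
  exact f_zero (hA _ ha) (fun c hc h => by rw [bv_xi hb hc, if_neg (by rintro rfl; exact h1 h)]) _

theorem clear (hbA : b ∉ A) (H : ∀ g, Fx (b :: A) g → g ∈ (sys F).U Set.univ) {g : E6univ F} (hg : Fx A g)
    (h1 : act g (bv b) (xi b) = 1) : g ∈ (sys F).U Set.univ := by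
  suffices ∀ (l : List ℕ) (g : E6univ F), Fx A g → act g (bv b) (xi b) = 1 →
      (∀ c < 27, c ∉ l → c ≠ b → ¬mt c b → act g (bv b) (xi c) = 0) → g ∈ (sys F).U Set.univ from
    this (List.range 27) g hg h1 fun c hc h => (h (List.mem_range.2 hc)).elim
  intro l
  induction l with
  | nil =>
    refine fun g hg h1 h0 => H g (List.forall_mem_cons.2 ⟨fun _ => sing hb (fun w => ?_) h1 (by simpa using h0), hg⟩)
    rw [← act_inv g w, act_B hF]
    refine ev3_eq_zero fun m hm => ?_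
    obtain ⟨h2, h3, -, h4, -⟩ := lt6 m (mem_r2 hm)
    by_cases e : m.1 = b
    · have : m.2.1 ≠ b := fun e' => (mt_chk b hb).1 (by rwa [e, e'] at h4)
      simp [tm, bv_xi, *]
    · simp [tm, bv_xi, *]
  | cons c l ih =>
    intro g hg h1 h0
    by_cases h : c < 27 ∧ Ok A b c
    · refine mv hb h.1 h.2 (-act g (bv b) (xi c)) hg (bv b) fun g' hg' e1 e2 => ih g' hg' ?_ fun x hx h2 h3 h4 => ?_
      · rw [e2 b hb h.2.1 (mt_chk b hb).1, h1]
      · by_cases e : x = c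
        · rw [e, e1, h1]; ring
        · rw [e2 x hx e h4, h0 x hx (by simp [*]) h3 h4]
    · refine ih g hg h1 fun x hx h2 h3 h4 => by_contra fun h5 => ?_
      obtain rfl : x = c := by_contra fun e => h5 (h0 x hx (by simp [*]) h3 h4)
      exact h ⟨hx, h3.symm, fun e => h4 ((mt_chk b hb).2 x hx e).1, fun a ha => ⟨fun e => hbA (e ▸ ha),
        fun e => by_contra fun e' => h5 (supp hF hA hb hg ha hx e' e)⟩⟩

omit hF hA hb in
/-- The combinatorial condition for one step of the elimination. -/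
def Step (A : List ℕ) (b : ℕ) : Prop := b < 27 ∧ b ∉ A ∧ ((∃ m ∈ r2 (r3 L45), m.2.1 = b ∧ m.1 ∈ A ∧ m.2.2.1 ∈ A) ∨
  ∃ o ∈ [] :: A.map fun a => [a], (∀ a ∈ o, mt a b) ∧ ∀ c < 27, (∃ a ∈ o, ¬mt a c) ∨ (∃ a ∈ A, ¬mt a b ∧ mt a c) ∨
    Ok A c b ∨ ∃ d < 27, Ok A c d ∧ Ok A d b)

omit hb in
theorem step (h : Step A b) (H : ∀ g, Fx (b :: A) g → g ∈ (sys F).U Set.univ) {g : E6univ F} (hg : Fx A g) :
    g ∈ (sys F).U Set.univ := by
  obtain ⟨hb, hbA, ⟨m, hm, rfl, h1, h2⟩ | ⟨o, ho, h1, h2⟩⟩ := h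
  · refine clear hF hA hb hbA H hg (mul_left_cancel₀ (ne_zero6 hm) ?_)
    rw [← f_bas hm, ← hg _ h1 (hA _ h1), ← hg _ h2 (hA _ h2), act_f hF, f_bas hm, bv_xi hb hb, if_pos rfl]
  have set {c} (hc : c < 27) (h : Ok A c b) (g) (hg : Fx A g) (h0 : act g (bv b) (xi c) ≠ 0) : g ∈ (sys F).U Set.univ :=
    mv hc hb h ((1 - act g (bv b) (xi b)) / act g (bv b) (xi c)) hg (bv b) fun g' hg' e _ =>
      clear hF hA hb hbA H hg' (by rw [e]; field_simp; ring)
  obtain ⟨c, hc, h3, h4⟩ : ∃ c < 27, (∀ a ∈ o, mt a c) ∧ act g (bv b) (xi c) ≠ 0 := by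
    by_contra! h
    rcases List.mem_cons.1 ho with rfl | ho
    · have : act g (bv b) = 0 := funext fun x => xi_ix x ▸ h _ (ix_lt x) (by simp)
      have e := congrFun (act_inv g⁻¹ (bv b)) (xi b)
      rw [inv_inv, this, bv_xi hb hb] at e
      simp [act] at e
    · obtain ⟨a, ha, rfl⟩ := List.mem_map.1 ho
      obtain ⟨m, hm, rfl, rfl⟩ := ((mt_chk a (hA a ha)).2 b hb (h1 a (by simp))).2
      refine ne_zero6 (F := F) hm ?_
      rw [← f_zero (hA _ ha) (fun c hc e => h c hc (by simpa)) (act g (bv m.2.2.1)), ← hg _ ha (hA _ ha), act_f hF,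
        f_bas hm, bv_xi hb hb, if_pos rfl, mul_one]
  rcases h2 c hc with ⟨a, ha, e⟩ | ⟨a, ha, e⟩ | e | ⟨d, hd, e, e'⟩
  · exact (e (h3 a ha)).elim
  · exact (h4 (supp hF hA hb hg ha hc e.1 e.2)).elim
  · exact set hc e g hg h4
  · exact mv hc hd e ((1 - act g (bv b) (xi d)) / act g (bv b) (xi c)) hg (bv b) fun g' hg' e1 _ =>
      set hd e' g' hg' (by rw [e1, div_mul_cancel₀ _ h4]; simp)

omit hA hb in
theorem sys_U : (sys F).U Set.univ = ⊤ := by
  have key (L : List ℕ) (h : ∀ p ∈ L.tails, ∀ b ∈ p.head?, Step p.tail b)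
      (H : ∀ g, Fx L g → g ∈ (sys F).U Set.univ) (g) : g ∈ (sys F).U Set.univ := by
    induction L with
    | nil => exact H g (by simp [Fx])
    | cons b A ih =>
      have h' : ∀ p ∈ A.tails, ∀ b ∈ p.head?, Step p.tail b := fun p hp => h p (by simp_all)
      refine ih h' fun g hg => step hF (fun a ha => ?_) (h (b :: A) (by simp) b rfl) H hg
      obtain ⟨s, t, rfl⟩ := List.append_of_mem ha
      exact (h' (a :: t) (by simp) a rfl).1
  refine eq_top_iff.2 fun g _ => key [26, 25, 24, 23, 22, 21, 17, 13, 11, 16, 14, 10, 20, 19, 15, 12, 18, 9, 7, 5, 6, 2,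
    3, 1, 8, 4, 0] (by unfold Step; decide +kernel) (fun g hg => ?_) g
  obtain rfl : g = 1 := Subtype.ext (Units.ext (Matrix.ext fun a b => by
    have := congrFun (hg (ix b) ((by decide : ∀ n < 27, _) _ (ix_lt b)) (ix_lt b)) a
    simpa [act, bv, xi_ix, one_apply, Pi.single_apply] using this))
  exact one_mem _

omit hA hb in
theorem equivE6 : Nonempty (E6 F ≃* chevE6.group F) := by
  have : Nontrivial (E6univ F) := ⟨(sys F).x (sm ⟨0, by decide⟩) 1, 1, fun e => by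
    obtain ⟨x, hx, e1, e2, e3⟩ := (by decide +kernel : ∃ x < 27, co (chevE6.simple 0) x = 1 ∧
      sr (chevE6.simple 0) x < 27 ∧ x ≠ sr (chevE6.simple 0) x)
    have := act_x (sm ⟨0, by decide⟩) (1 : F) (bv (sr (chevE6.simple 0) x)) hx
    simp [e, act, e1, bv_xi e2 e2] at this⟩
  obtain ⟨e, -⟩ := ChAut.exists_equiv_quot (sys F) (sys_U hF) (.inl hF)
  exact ⟨e.symm⟩

end Cfsg.Agent.E27
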